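import Mathlib
import Cfsg.Agent.H902.Names

/-!
# Elements of prime power order `v ^ k` of the simple groups of Lie type in characteristic `v ≥ 5` (helper200)

`exists_mat` : the group is a quotient of a group of matrices of a small degree.
-/

set_option autoImplicit false

namespace Cfsg.Agent.H200.DF

open Cfsg Cfsg.Agent.OrdDiv Cfsg.Agent.H902 Cfsg.Agent.H902.Names

universe u

theorem pow_card_eq_zero {ι K : Type*} [Fintype ι] [DecidableEq ι] [Field K] {A : Matrix ι ι K}
    (h : IsNilpotent A) : A ^ Fintype.card ι = 0 := by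
  have h1 := Matrix.isNilpotent_charpoly_sub_pow_of_isNilpotent h
  have h2 : A.charpoly = Polynomial.X ^ Fintype.card ι := sub_eq_zero.1 h1.eq_zero
  have h3 := Matrix.aeval_self_charpoly A
  rwa [h2, map_pow, Polynomial.aeval_X] at h3

section Unip

variable {ι K : Type*} [Fintype ι] [DecidableEq ι] [Nonempty ι] [Field K] {p : ℕ} [hp : Fact p.Prime] [CharP K p]

theorem matrix_pow {e j : ℕ} (he : Fintype.card ι ≤ p ^ e) {A : Matrix ι ι K} (h : A ^ p ^ j = 1) :
    A ^ p ^ e = 1 := by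
  have : CharP (Matrix ι ι K) p := inferInstance
  have h3 : (A - 1) ^ (p ^ j) = 0 := by
    rw [sub_pow_char_pow_of_commute (p := p) _ (Commute.one_right _), h, one_pow, sub_self]
  have h4 : (A - 1) ^ Fintype.card ι = 0 := pow_card_eq_zero (⟨_, h3⟩ : IsNilpotent (A - 1))
  have h6 : (A - 1) ^ (p ^ e) = 0 := by
    obtain ⟨k, hk⟩ := Nat.exists_eq_add_of_le he
    rw [hk, pow_add, h4, zero_mul]
  rwa [sub_pow_char_pow_of_commute (p := p) _ (Commute.one_right _), one_pow, sub_eq_zero] at h6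

/-- the order of a unipotent element -/
theorem unip {G : Type*} [Group G] {ρ : G →* Matrix ι ι K} (hρ : Function.Injective ρ) {x : G}
    {k : ℕ} (hx : orderOf x = p ^ (k + 1)) : p ^ k < Fintype.card ι := by
  by_contra hlt
  have h1 : (ρ x) ^ p ^ (k + 1) = 1 := by
    rw [← map_pow, ← hx, pow_orderOf_eq_one, map_one]
  have h2 := matrix_pow (p := p) (e := k) (not_lt.1 hlt) h1
  have h4 : x ^ p ^ k = 1 := hρ (by rw [map_pow, h2, map_one])
  have h5 := orderOf_dvd_of_pow_eq_one h4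
  rw [hx] at h5
  have h6 := (Nat.pow_dvd_pow_iff_le_right hp.out.one_lt).1 h5
  omega

end Unip

/-- `S` is a quotient of a finite group of matrices of degree `m` in characteristic `v` -/
def MatV (v m : ℕ) (S : Type u) [Group S] : Prop :=
  ∃ (ι : Type) (_ : Fintype ι) (_ : DecidableEq ι) (_ : Nonempty ι) (K : Type) (_ : Field K) (_ : CharP K v)
    (H : Type) (_ : Group H) (_ : Finite H) (ρ : H →* Matrix ι ι K) (π : H →* S),
    Fintype.card ι = m ∧ Function.Injective ρ ∧ Function.Surjective π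

/-- the orders of the `v`-elements -/
theorem MatV.lt {v m : ℕ} (hv : v.Prime) {S : Type u} [Group S] (h : MatV v m S) {x : S} {a : ℕ}
    (hx : orderOf x = v ^ (a + 1)) : v ^ a < m := by
  obtain ⟨ι, _, _, _, K, _, _, H, _, _, ρ, π, rfl, hρ, hπ⟩ := h
  have : Fact v.Prime := ⟨hv⟩
  obtain ⟨y, rfl⟩ := hπ x
  obtain ⟨e, k, hk, hy⟩ := Nat.exists_eq_pow_mul_and_not_dvd (orderOf_pos y).ne' v hv.ne_one
  have hk0 : k ≠ 0 := by
    rintro rfl
    exact hk (dvd_zero _)
  have h1 : orderOf (y ^ k) = v ^ e := by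
    rw [orderOf_pow_of_dvd hk0 (by rw [hy]; exact Dvd.intro_left _ rfl), hy,
      Nat.mul_div_cancel _ (Nat.pos_of_ne_zero hk0)]
  have h2 : orderOf (π (y ^ k)) = v ^ (a + 1) := by
    rw [map_pow, Nat.Coprime.orderOf_pow, hx]
    rw [hx]
    exact Nat.Coprime.pow_left _ ((Nat.Prime.coprime_iff_not_dvd hv).2 hk)
  have h3 : v ^ (a + 1) ∣ v ^ e := by
    rw [← h1, ← h2]
    exact orderOf_map_dvd π _
  have h4 := (Nat.pow_dvd_pow_iff_le_right hv.one_lt).1 h3
  obtain ⟨e', rfl⟩ := Nat.exists_eq_add_of_le' (show 1 ≤ e by omega)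
  have h5 := unip (p := v) hρ h1
  exact (Nat.pow_le_pow_right hv.pos (by omega)).trans_lt h5

/-! ### the degrees -/

theorem charP_of {F : Type*} [Field F] [Fintype F] {v k : ℕ} (hv : v.Prime) (h : Fintype.card F = v ^ k) : CharP F v := by
  obtain ⟨ℓ, hchar⟩ := CharP.exists F
  have hl : Fact ℓ.Prime := ⟨CharP.char_is_prime F ℓ⟩
  obtain ⟨m, hm, hcard⟩ := FiniteField.card F ℓ
  rw [h] at hcard
  have h1 : ℓ ∣ v ^ k := by rw [hcard]; exact dvd_pow_self ℓ m.ne_zero
  have h3 : ℓ = v := (Nat.prime_dvd_prime_iff_eq hm hv).1 (hm.dvd_of_dvd_pow h1)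
  subst h3
  exact hchar

section mk

variable {ι : Type} [Fintype ι] [DecidableEq ι] {F : Type} [Field F] [Fintype F] {v : ℕ} {S : Type u} [Group S]

/-- a group of matrices -/
theorem MatV.of_gl [Nonempty ι] [CharP F v] {H : Subgroup (Matrix.GeneralLinearGroup ι F)} (e : S ≃* H) :
    MatV v (Fintype.card ι) S :=
  ⟨ι, inferInstance, inferInstance, inferInstance, F, inferInstance, inferInstance, H, inferInstance, inferInstance,
    (Units.coeHom _).comp H.subtype, e.symm.toMonoidHom, rfl,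
    fun _ _ h => Subtype.ext (Units.ext h), e.symm.surjective⟩

/-- a quotient of a subgroup of `Ω` -/
theorem MatV.of_omega [Nonempty ι] [CharP F v] {Q : (ι → F) → F} (e : S ≃* POmega F Q) :
    MatV v (Fintype.card ι) S :=
  ⟨ι, inferInstance, inferInstance, inferInstance, F, inferInstance, inferInstance, Omega F Q, inferInstance,
    inferInstance, (Units.coeHom _).comp ((Subgroup.subtype _).comp (Subgroup.subtype _)),
    e.symm.toMonoidHom.comp (QuotientGroup.mk' _), rfl,
    fun _ _ h => Subtype.ext (Subtype.ext (Units.ext h)),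
    e.symm.surjective.comp (QuotientGroup.mk'_surjective _)⟩

end mk

theorem sl_inj {n : ℕ} {F : Type} [Field F] : Function.Injective (slToMat n F) := by
  intro a b h
  exact Subtype.ext h

theorem four_le (a : ℕ) : 4 * a + 1 ≤ 5 ^ a := by
  induction a with
  | zero => norm_num
  | succ k ih => rw [pow_succ]; omega

/-- the exponents of `5` -/
theorem small_exp {a m N : ℕ} (h : 5 ^ a < m) (hm : (m ≤ 25 ∧ 6 ≤ N) ∨ (m ≤ 125 ∧ 9 ≤ N) ∨ (m ≤ 625 ∧ 12 ≤ N)) :
    a = 0 ∨ 3 * (a + 1) ≤ N := by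
  have key : ∀ k : ℕ, m ≤ 5 ^ k → a < k := fun k hk => by
    by_contra hcon
    have := Nat.pow_le_pow_right (show 0 < 5 by norm_num) (not_lt.1 hcon)
    omega
  rcases hm with ⟨h1, h2⟩ | ⟨h1, h2⟩ | ⟨h1, h2⟩
  · have := key 2 (by norm_num; exact h1); omega
  · have := key 3 (by norm_num; exact h1); omega
  · have := key 4 (by norm_num; exact h1); omega

theorem lin_exp {n a : ℕ} (h : 5 ^ a < n) : a = 0 ∨ 3 * (a + 1) ≤ n * (n - 1) / 2 := by
  have h1 := four_le a
  rcases Nat.eq_zero_or_pos a with h0 | h0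
  · exact Or.inl h0
  · right
    rw [Nat.le_div_iff_mul_le (by norm_num)]
    have h2 : 6 ≤ n := by omega
    calc 3 * (a + 1) * 2 ≤ n * 5 := by omega
      _ ≤ n * (n - 1) := Nat.mul_le_mul_left _ (by omega)

/-- **The simple group is a quotient of a group of matrices.** -/
theorem exists_mat {S : Type u} [Group S] {gr : Grp} {X : Art.Sh} {v g M : ℕ} (hg : IsLie gr X v g)
    (h : OrdDiv.Real gr S) (hX : Art.Real X v g M) (h5 : 5 ≤ v) :
    ∃ m, MatV v m S ∧ ∀ a, 5 ^ a < m → a = 0 ∨ 3 * (a + 1) ≤ Art.NN X := by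
  have hv := hX.hp
  have hok := hX.ok
  cases hg with
  | psl n p f =>
    obtain ⟨F, _, _, hF, ⟨e⟩⟩ := h
    have := charP_of hv hF
    have hn : 2 ≤ n := hok.1
    have : Nonempty (Fin n) := ⟨⟨0, by omega⟩⟩
    exact ⟨n, ⟨Fin n, inferInstance, inferInstance, inferInstance, F, inferInstance, inferInstance,
      Matrix.SpecialLinearGroup (Fin n) F, inferInstance, inferInstance, slToMat n F,
      e.symm.toMonoidHom.comp (QuotientGroup.mk' _), Fintype.card_fin n, sl_inj,
      e.symm.surjective.comp (QuotientGroup.mk'_surjective _)⟩, fun a ha => lin_exp ha⟩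
  | psp n p f =>
    obtain ⟨F, _, _, hF, ⟨e⟩⟩ := h
    have := charP_of hv hF
    have hn : 2 ≤ n := hok.1
    have : Nonempty (Fin n) := ⟨⟨0, by omega⟩⟩
    refine ⟨n + n, ⟨Fin n ⊕ Fin n, inferInstance, inferInstance, inferInstance, F, inferInstance, inferInstance,
      Matrix.symplecticGroup (Fin n) F, inferInstance, inferInstance, (Matrix.symplecticGroup (Fin n) F).subtype,
      e.symm.toMonoidHom.comp (QuotientGroup.mk' _), by simp, Subtype.val_injective,
      e.symm.surjective.comp (QuotientGroup.mk'_surjective _)⟩, fun a ha => ?_⟩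
    have h1 := four_le a
    rcases Nat.eq_zero_or_pos a with h0 | h0
    · exact Or.inl h0
    · right
      show 3 * (a + 1) ≤ n ^ 2
      nlinarith
  | oodd n p f hn ho =>
    obtain ⟨F, _, _, hF, ⟨e⟩⟩ := h
    have := charP_of hv hF
    have hn : 2 ≤ n := hok.1
    have h1 := MatV.of_omega (v := v) e
    refine ⟨_, h1, fun a ha => ?_⟩
    have h2 : Fintype.card (Unit ⊕ (Fin n ⊕ Fin n)) = 2 * n + 1 := by simp; ring
    rw [h2] at ha
    have h1 := four_le a
    rcases Nat.eq_zero_or_pos a with h0 | h0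
    · exact Or.inl h0
    · right
      show 3 * (a + 1) ≤ n ^ 2
      nlinarith
  | psu n p f =>
    obtain ⟨F, _, _, hF, ⟨e⟩⟩ := h
    rw [← pow_mul] at hF
    have := charP_of hv hF
    have hn : 3 ≤ n := hok.1
    have : Nonempty (Fin n) := ⟨⟨0, by omega⟩⟩
    exact ⟨n, ⟨Fin n, inferInstance, inferInstance, inferInstance, F, inferInstance, inferInstance,
      SU n F (v ^ g), inferInstance, inferInstance, (slToMat n F).comp (Subgroup.subtype _),
      e.symm.toMonoidHom.comp (QuotientGroup.mk' _), Fintype.card_fin n, sl_inj.comp Subtype.val_injective,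
      e.symm.surjective.comp (QuotientGroup.mk'_surjective _)⟩, fun a ha => lin_exp ha⟩
  | oplus n p f =>
    obtain ⟨F, _, _, hF, ⟨e⟩⟩ := h
    have := charP_of hv hF
    have hn : 4 ≤ n := hok
    have : Nonempty (Fin n) := ⟨⟨0, by omega⟩⟩
    have h1 := MatV.of_omega (v := v) e
    refine ⟨_, h1, fun a ha => ?_⟩
    have h2 : Fintype.card (Fin n ⊕ Fin n) = 2 * n := by simp; ring
    rw [h2] at ha
    have h1 := four_le a
    rcases Nat.eq_zero_or_pos a with h0 | h0
    · exact Or.inl h0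
    · right
      show 3 * (a + 1) ≤ n * (n - 1)
      calc 3 * (a + 1) ≤ n * 3 := by omega
        _ ≤ _ := Nat.mul_le_mul_left _ (by omega)
  | ominus n p f =>
    obtain ⟨F, _, _, a, b, hF, -, ⟨e⟩⟩ := h
    have := charP_of hv hF
    have hn : 4 ≤ n := hok
    have h1 := MatV.of_omega (v := v) e
    refine ⟨_, h1, fun a ha => ?_⟩
    have h2 : Fintype.card ((Fin (n - 1) ⊕ Fin (n - 1)) ⊕ Fin 2) = 2 * n := by simp; omega
    rw [h2] at ha
    have h1 := four_le a
    rcases Nat.eq_zero_or_pos a with h0 | h0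
    · exact Or.inl h0
    · right
      show 3 * (a + 1) ≤ n * (n - 1)
      calc 3 * (a + 1) ≤ n * 3 := by omega
        _ ≤ _ := Nat.mul_le_mul_left _ (by omega)
  | g2 p f =>
    obtain ⟨F, _, _, hF, ⟨e⟩⟩ := h
    have := charP_of hv hF
    have h2 : Fintype.card Lie.chevG2.Idx = 14 := by decide +kernel
    have : Nonempty Lie.chevG2.Idx := Fintype.card_pos_iff.1 (by omega)
    exact ⟨_, MatV.of_gl (v := v) e, fun a ha => small_exp (h2 ▸ ha) (Or.inl ⟨by norm_num, le_rfl⟩)⟩
  | f4 p f =>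
    obtain ⟨F, _, _, hF, ⟨e⟩⟩ := h
    have := charP_of hv hF
    have h2 : Fintype.card Lie.chevF4.Idx = 52 := by decide +kernel
    have : Nonempty Lie.chevF4.Idx := Fintype.card_pos_iff.1 (by omega)
    exact ⟨_, MatV.of_gl (v := v) e, fun a ha => small_exp (h2 ▸ ha) (Or.inr (Or.inl ⟨by norm_num, by decide⟩))⟩
  | e6 p f =>
    obtain ⟨F, _, _, hF, ⟨e⟩⟩ := h
    have := charP_of hv hF
    have h2 : Fintype.card Lie.chevE6.Idx = 78 := by decide +kernel
    have : Nonempty Lie.chevE6.Idx := Fintype.card_pos_iff.1 (by omega)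
    exact ⟨_, MatV.of_gl (v := v) e, fun a ha => small_exp (h2 ▸ ha) (Or.inr (Or.inl ⟨by norm_num, by decide⟩))⟩
  | e7 p f =>
    obtain ⟨F, _, _, hF, ⟨e⟩⟩ := h
    have := charP_of hv hF
    have h2 : Fintype.card Lie.chevE7.Idx = 133 := by decide +kernel
    have : Nonempty Lie.chevE7.Idx := Fintype.card_pos_iff.1 (by omega)
    exact ⟨_, MatV.of_gl (v := v) e, fun a ha => small_exp (h2 ▸ ha) (Or.inr (Or.inr ⟨by norm_num, by decide⟩))⟩
  | e8 p f =>
    obtain ⟨F, _, _, hF, ⟨e⟩⟩ := h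
    have := charP_of hv hF
    have h2 : Fintype.card Lie.chevE8.Idx = 248 := by decide +kernel
    have : Nonempty Lie.chevE8.Idx := Fintype.card_pos_iff.1 (by omega)
    exact ⟨_, MatV.of_gl (v := v) e, fun a ha => small_exp (h2 ▸ ha) (Or.inr (Or.inr ⟨by norm_num, by decide⟩))⟩
  | te6 p f =>
    obtain ⟨F, _, _, hF, ⟨e⟩⟩ := h
    rw [← pow_mul] at hF
    have := charP_of hv hF
    have h2 : Fintype.card Lie.chevE6.Idx = 78 := by decide +kernel
    have : Nonempty Lie.chevE6.Idx := Fintype.card_pos_iff.1 (by omega)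
    exact ⟨_, MatV.of_gl (v := v) (H := Lie.twistedE6 F (v ^ g)) e,
      fun a ha => small_exp (h2 ▸ ha) (Or.inr (Or.inl ⟨by norm_num, by decide⟩))⟩
  | td4 p f =>
    obtain ⟨F, _, _, hF, ⟨e⟩⟩ := h
    rw [← pow_mul] at hF
    have := charP_of hv hF
    have h2 : Fintype.card Lie.chevD4.Idx = 28 := by decide +kernel
    have : Nonempty Lie.chevD4.Idx := Fintype.card_pos_iff.1 (by omega)
    exact ⟨_, MatV.of_gl (v := v) (H := Lie.twistedD4 F (v ^ g)) e,
      fun a ha => small_exp (h2 ▸ ha) (Or.inr (Or.inl ⟨by norm_num, by decide⟩))⟩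
  | sz p f =>
    have : v = 2 := hok.1
    omega
  | ree p f =>
    have : v = 3 := hok.1
    omega
  | tf4 p f =>
    have : v = 2 := hok.1
    omega

end Cfsg.Agent.H200.DF
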